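import Mathlib.LinearAlgebra.Matrix.GeneralLinearGroup.Defs
import Mathlib.LinearAlgebra.Matrix.ToLin
import Mathlib.LinearAlgebra.Matrix.NonsingularInverse
import Mathlib.Algebra.Field.ZMod
import Mathlib.Data.Fin.VecNotation
import Mathlib.Data.ZMod.Basic
import Mathlib.LinearAlgebra.Matrix.ToLinearEquiv

/-!
A group of matrices given by generators and a list of words, regular on the non-zero vectors.
-/

set_option autoImplicit false

namespace CfsgLib.RegularSolvable

theorem regular_of_words {p k : ℕ} [Fact p.Prime]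
    (g : Fin k → Matrix.GeneralLinearGroup (Fin 2) (ZMod p)) (M : Fin k → Matrix (Fin 2) (Fin 2) (ZMod p))
    (hg : ∀ i, ((g i : Matrix.GeneralLinearGroup (Fin 2) (ZMod p)) : Matrix (Fin 2) (Fin 2) (ZMod p)) = M i)
    (words : List (List (Fin k)))
    (hnil : [] ∈ words)
    (hlen : words.length + 1 = p ^ 2)
    (hclosed : ∀ w ∈ words, ∀ i, (w.map M).prod * M i ∈ words.map (fun w => (w.map M).prod))
    (hnd : (words.map fun w => (w.map M).prod).Nodup)
    (hfree : ∀ w ∈ words, (w.map M).prod ≠ 1 → ((w.map M).prod - 1).det ≠ 0) :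
    Nat.card (Subgroup.closure (Set.range g)) = p ^ 2 - 1 ∧
      ∀ v w : Fin 2 → ZMod p, v ≠ 0 → w ≠ 0 → ∃! h : Subgroup.closure (Set.range g),
        Matrix.mulVec ((h : Matrix.GeneralLinearGroup (Fin 2) (ZMod p)) : Matrix (Fin 2) (Fin 2) (ZMod p)) v = w := by
  classical
  set H := Subgroup.closure (Set.range g) with hH
  let ev : List (Fin k) → Matrix.GeneralLinearGroup (Fin 2) (ZMod p) := fun w => (w.map g).prod
  have hev : ∀ w, ((ev w : Matrix.GeneralLinearGroup (Fin 2) (ZMod p)) : Matrix (Fin 2) (Fin 2) (ZMod p))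
      = (w.map M).prod := fun w => by
    induction w with
    | nil => rfl
    | cons a w ih =>
      show ((g a * ev w : Matrix.GeneralLinearGroup (Fin 2) (ZMod p)) : Matrix (Fin 2) (Fin 2) (ZMod p)) = _
      rw [Matrix.GeneralLinearGroup.coe_mul, ih, hg, List.map_cons, List.prod_cons]
  have hmem : ∀ x ∈ H, ∃ w ∈ words, ev w = x := by
    intro x hx
    rw [← Subgroup.mem_toSubmonoid, Subgroup.closure_toSubmonoid_of_finite] at hx
    induction hx using Submonoid.closure_induction_right with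
    | one => exact ⟨[], hnil, rfl⟩
    | mul_right y hy z hz ih =>
      obtain ⟨w, hw, rfl⟩ := ih
      obtain ⟨i, rfl⟩ := hz
      obtain ⟨w', hw', e⟩ := List.mem_map.1 (hclosed w hw i)
      refine ⟨w', hw', Units.ext ?_⟩
      rw [hev, e, Matrix.GeneralLinearGroup.coe_mul, hev, hg]
  have hin : ∀ w : List (Fin k), ev w ∈ H := fun w => by
    refine list_prod_mem fun x hx => ?_
    obtain ⟨i, -, rfl⟩ := List.mem_map.1 hx
    exact Subgroup.subset_closure ⟨i, rfl⟩
  have hnd' : (words.map ev).Nodup := by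
    refine List.Nodup.of_map (f := fun x : Matrix.GeneralLinearGroup (Fin 2) (ZMod p) =>
      (x : Matrix (Fin 2) (Fin 2) (ZMod p))) ?_
    rw [List.map_map]
    rwa [show ((fun x : Matrix.GeneralLinearGroup (Fin 2) (ZMod p) =>
      (x : Matrix (Fin 2) (Fin 2) (ZMod p))) ∘ ev) = fun w => (w.map M).prod from funext hev]
  have hcard : Nat.card H = p ^ 2 - 1 := by
    have e : (H : Set (Matrix.GeneralLinearGroup (Fin 2) (ZMod p))) = ↑(words.map ev).toFinset := by
      ext x
      simp only [List.coe_toFinset, Set.mem_setOf_eq, SetLike.mem_coe, List.mem_map]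
      exact ⟨fun h => hmem x h, fun ⟨w, _, e⟩ => e ▸ hin w⟩
    rw [← SetLike.coe_sort_coe, Nat.card_coe_set_eq, e, Set.ncard_coe_finset,
      List.toFinset_card_of_nodup hnd', List.length_map]
    omega
  refine ⟨hcard, fun v w hv hw => ?_⟩
  haveI : Finite H := inferInstance
  let f : H → {u : Fin 2 → ZMod p // u ≠ 0} := fun h =>
    ⟨Matrix.mulVec ((h : Matrix.GeneralLinearGroup (Fin 2) (ZMod p)) : Matrix (Fin 2) (Fin 2) (ZMod p)) v, fun e =>
      hv (by
        have h1 := congrArg (Matrix.mulVec ((((h : Matrix.GeneralLinearGroup (Fin 2) (ZMod p))⁻¹) :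
          Matrix.GeneralLinearGroup (Fin 2) (ZMod p)) : Matrix (Fin 2) (Fin 2) (ZMod p))) e
        rwa [Matrix.mulVec_mulVec, ← Matrix.GeneralLinearGroup.coe_mul, inv_mul_cancel,
          Matrix.GeneralLinearGroup.coe_one, Matrix.one_mulVec, Matrix.mulVec_zero] at h1)⟩
  have hinj : Function.Injective f := by
    intro a b hab
    have h1 : Matrix.mulVec ((((b⁻¹ * a : H)) : Matrix.GeneralLinearGroup (Fin 2) (ZMod p)) :
        Matrix (Fin 2) (Fin 2) (ZMod p)) v = v := by
      have h0 : Matrix.mulVec ((a : Matrix.GeneralLinearGroup (Fin 2) (ZMod p)) : Matrix (Fin 2) (Fin 2) (ZMod p)) v =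
          Matrix.mulVec ((b : Matrix.GeneralLinearGroup (Fin 2) (ZMod p)) : Matrix (Fin 2) (Fin 2) (ZMod p)) v :=
        congrArg Subtype.val hab
      rw [Subgroup.coe_mul, Matrix.GeneralLinearGroup.coe_mul, ← Matrix.mulVec_mulVec,
        h0, Matrix.mulVec_mulVec, Subgroup.coe_inv,
        ← Matrix.GeneralLinearGroup.coe_mul, inv_mul_cancel, Matrix.GeneralLinearGroup.coe_one,
        Matrix.one_mulVec]
    obtain ⟨u, hu, hue⟩ := hmem _ (b⁻¹ * a).2
    rw [← hue, hev] at h1
    by_cases hne : (u.map M).prod = 1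
    · have h2 : (b⁻¹ * a : H) = 1 := Subtype.ext (Units.ext (by rw [← hue, hev, hne]; rfl))
      exact (inv_mul_eq_one.1 h2).symm
    · exfalso
      refine hfree u hu hne (Matrix.exists_mulVec_eq_zero_iff.1 ⟨v, hv, ?_⟩)
      rw [Matrix.sub_mulVec, h1, Matrix.one_mulVec, sub_self]
  have hbij : Function.Bijective f := by
    rw [Nat.bijective_iff_injective_and_card]
    refine ⟨hinj, ?_⟩
    rw [hcard, Nat.card_eq_fintype_card, Fintype.card_subtype_compl, Fintype.card_subtype_eq,
      Fintype.card_fun, ZMod.card, Fintype.card_fin]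
  obtain ⟨h, hh⟩ := hbij.2 ⟨w, hw⟩
  exact ⟨h, congrArg Subtype.val hh, fun y hy => hbij.1 (Subtype.ext (hy.trans (congrArg Subtype.val hh).symm))⟩

end CfsgLib.RegularSolvable
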